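import Cfsg.Agent.H92.RtRR
import Cfsg.Agent.CharBase.Central
import Cfsg.Agent.CharBase.Ortho
import Cfsg.Agent.Char.Degree

/-!
# S2755, piece E6: the final congruence modulo 3
-/

set_option autoImplicit false
set_option linter.unusedVariables false
set_option linter.unusedSectionVars false
set_option linter.style.haveILetI false

namespace Cfsg.Agent.H93.RtE6

open Cfsg Cfsg.Agent Cfsg.Agent.CharBase Cfsg.Agent.H92.Rt
open scoped ComplexConjugate

universe u

/-- orbits of length three -/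
theorem orb3 {α : Type*} [DecidableEq α] (φ : α → α) (hφ3 : ∀ a, φ (φ (φ a)) = a) (f : α → ℂ)
    (hf : ∀ a, f (φ a) = f a) (hint : ∀ a, IsIntegral ℤ (f a)) : ∀ (n : ℕ) (S : Finset α), S.card ≤ n →
    (∀ a ∈ S, φ a ∈ S) → (∀ a ∈ S, φ a ≠ a) → ∃ w : ℂ, IsIntegral ℤ w ∧ ∑ a ∈ S, f a = 3 * w := by
  intro n
  induction n with
  | zero =>
    intro S hS _ _
    have : S = ∅ := Finset.card_eq_zero.1 (Nat.le_zero.1 hS)
    subst this
    exact ⟨0, isIntegral_zero, by simp⟩
  | succ n ih =>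
    intro S hS hst hne
    rcases S.eq_empty_or_nonempty with h | ⟨a, ha⟩
    · subst h
      exact ⟨0, isIntegral_zero, by simp⟩
    have hb := hst a ha
    have hc := hst _ hb
    have h1 : φ a ≠ a := hne a ha
    have h2 : φ (φ a) ≠ φ a := hne _ hb
    have h3 : φ (φ a) ≠ a := by
      intro h
      have h4 := congrArg φ h
      rw [hφ3] at h4
      exact h1 h4.symm
    set A : Finset α := {a, φ a, φ (φ a)} with hA
    have hAS : A ⊆ S := by
      intro b hb'
      simp only [hA, Finset.mem_insert, Finset.mem_singleton] at hb'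
      rcases hb' with rfl | rfl | rfl
      · exact ha
      · exact hb
      · exact hc
    have hcardA : A.card = 3 := by
      rw [hA, Finset.card_insert_of_notMem, Finset.card_insert_of_notMem, Finset.card_singleton]
      · simp only [Finset.mem_singleton]; exact h2.symm
      · simp only [Finset.mem_insert, Finset.mem_singleton, not_or]; exact ⟨h1.symm, h3.symm⟩
    have hsumA : ∑ b ∈ A, f b = 3 * f a := by
      rw [hA, Finset.sum_insert, Finset.sum_insert, Finset.sum_singleton, hf (φ a), hf a]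
      · ring
      · simp only [Finset.mem_singleton]; exact h2.symm
      · simp only [Finset.mem_insert, Finset.mem_singleton, not_or]; exact ⟨h1.symm, h3.symm⟩
    have hcard : (S \ A).card ≤ n := by
      have := Finset.card_sdiff_add_card_eq_card hAS
      omega
    obtain ⟨w, hw, hsum⟩ := ih (S \ A) hcard (by
      intro b hb'
      rw [Finset.mem_sdiff] at hb' ⊢
      refine ⟨hst b hb'.1, fun h => hb'.2 ?_⟩
      simp only [hA, Finset.mem_insert, Finset.mem_singleton] at h ⊢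
      rcases h with h | h | h
      · right; right
        rw [← h, hφ3]
      · left
        have := congrArg (fun z => φ (φ z)) h
        simp only [hφ3] at this
        exact this
      · right; left
        have := congrArg (fun z => φ (φ z)) h
        simp only [hφ3] at this
        exact this) (fun b hb' => hne b (Finset.mem_sdiff.1 hb').1)
    refine ⟨f a + w, (hint a).add hw, ?_⟩
    rw [← Finset.sum_sdiff hAS, hsum, hsumA]
    ring

variable {G : Type u} [Group G] [Fintype G]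

/-- summing over the class of `t` -/
theorem sum_class [DecidableEq G] {T : Finset G} {t : G} (hT : ∀ v : G, v ∈ T ↔ ∃ z : G, z * t * z⁻¹ = v) (f : G → ℂ) :
    ∑ z : G, f (z * t * z⁻¹) = (Nat.card (Subgroup.centralizer ({t} : Set G)) : ℂ) * ∑ v ∈ T, f v := by
  classical
  rw [Finset.sum_comp f (fun z => z * t * z⁻¹)]
  have himg : Finset.univ.image (fun z => z * t * z⁻¹) = T := by
    ext v
    rw [Finset.mem_image, hT]
    simp
  rw [himg, Finset.mul_sum]
  apply Finset.sum_congr rfl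
  intro v hv
  obtain ⟨z0, rfl⟩ := (hT v).1 hv
  rw [nsmul_eq_mul]
  congr 2
  rw [← Fintype.card_subtype, ← Nat.card_eq_fintype_card]
  refine Nat.card_congr
    { toFun := fun a => ⟨z0⁻¹ * a.1, Subgroup.mem_centralizer_singleton_iff.2 ?_⟩
      invFun := fun c => ⟨z0 * c.1, ?_⟩
      left_inv := fun a => Subtype.ext (mul_inv_cancel_left _ _)
      right_inv := fun c => Subtype.ext (inv_mul_cancel_left _ _) }
  · have h := a.2
    calc z0⁻¹ * a.1 * t = z0⁻¹ * (a.1 * t * a.1⁻¹) * a.1 := by group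
      _ = z0⁻¹ * (z0 * t * z0⁻¹) * a.1 := by rw [h]
      _ = t * (z0⁻¹ * a.1) := by group
  · have h := Subgroup.mem_centralizer_singleton_iff.1 c.2
    calc z0 * c.1 * t * (z0 * c.1)⁻¹ = z0 * (c.1 * t) * c.1⁻¹ * z0⁻¹ := by group
      _ = z0 * (t * c.1) * c.1⁻¹ * z0⁻¹ := by rw [h]
      _ = _ := by group

theorem card_class [DecidableEq G] {T : Finset G} {t : G} (hT : ∀ v : G, v ∈ T ↔ ∃ z : G, z * t * z⁻¹ = v) :
    (Subgroup.centralizer ({t} : Set G)).index = T.card := by
  have h1 := sum_class hT (fun _ => 1)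
  rw [Finset.sum_const, Finset.sum_const, Finset.card_univ, nsmul_eq_mul, nsmul_eq_mul, mul_one, mul_one] at h1
  have h2 : Fintype.card G = Nat.card (Subgroup.centralizer ({t} : Set G)) * T.card := by exact_mod_cast h1
  have h3 := (Subgroup.centralizer ({t} : Set G)).card_mul_index
  rw [Nat.card_eq_fintype_card (α := G), h2] at h3
  exact Nat.eq_of_mul_eq_mul_left Nat.card_pos h3

/-- the central character -/
theorem omega_mul [DecidableEq G] {T : Finset G} {t : G} (hT : ∀ v : G, v ∈ T ↔ ∃ z : G, z * t * z⁻¹ = v)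
    {χ : G → ℂ} (hχ : IsIrrCharacter G χ) (u : G) :
    ∑ v ∈ T, χ (u * v) = ((T.card : ℂ) * χ t / χ 1) * χ u := by
  have h1 := sum_conj_mul hχ u t
  have h2 := sum_class hT (fun v => χ (u * v))
  rw [h1] at h2
  have h3 := (Subgroup.centralizer ({t} : Set G)).card_mul_index
  rw [card_class hT] at h3
  have h4 : (Nat.card (Subgroup.centralizer ({t} : Set G)) : ℂ) ≠ 0 := by exact_mod_cast Nat.card_pos.ne'
  rw [← h3] at h2
  push_cast at h2
  apply mul_left_cancel₀ h4
  rw [← h2]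
  ring

theorem omega_int [DecidableEq G] {T : Finset G} {t : G} (hT : ∀ v : G, v ∈ T ↔ ∃ z : G, z * t * z⁻¹ = v)
    {χ : G → ℂ} (hχ : IsIrrCharacter G χ) : IsIntegral ℤ ((T.card : ℂ) * χ t / χ 1) := by
  have h1 := isIntegral_centralChar hχ t
  rwa [card_class hT] at h1

theorem final_of_c3 {t : G} {K : Subgroup G} {q m : ℕ} {U A : Subgroup K}
    {k s r : K} (D : RD t K q m U A k s r)
    (c3 : ∀ x : K, x ∈ U → x ≠ 1 → (∃ c : ℕ, Nat.card (Subgroup.centralizer ({(x : G)} : Set G)) = 2 * q * c ∧ Odd c ∧ ¬ 3 ∣ c) ∧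
    (∀ v : G, v ≠ 1 → v * v = 1 → v * (x : G) = (x : G) * v → ∃ g : G, g * (x : G) = (x : G) * g ∧ g * v * g⁻¹ = t) ∧
    (∀ v : G, v ≠ 1 → v * v = 1 → v * (x : G) = (x : G) * v → Odd (orderOf (v * t)) ∧ Odd (orderOf (v * t * (x : G)))))
    (χ : Fin 4 → IrrCharacter G) (ε : ℤ) (hε : ε = 1 ∨ ε = -1)
    (σ : Fin 4 → ℤ) (h0 : σ 0 = 3 * ε) (h1 : σ 1 = -ε)
    (hodd : ∀ g : G, Odd (orderOf g) → ∀ i j, (χ i : G → ℂ) g = (χ j : G → ℂ) g)
    (ht : ∀ j, (χ j : G → ℂ) t = ((q : ℂ) - 1) * σ j)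
    (htx : ∀ j, ∀ x ∈ U, x ≠ 1 → (χ j : G → ℂ) (t * (x : G)) = -(σ j : ℂ)) : False := by
  classical
  have q27 := D.kd.q27
  -- an element of `U`
  obtain ⟨x, hxU, hx1⟩ : ∃ x ∈ U, x ≠ 1 := by
    have h2 : 1 < Nat.card U := by rw [D.kd.cardU]; omega
    haveI : Nontrivial U := Finite.one_lt_card_iff_nontrivial.1 h2
    obtain ⟨y, hy⟩ := exists_ne (1 : U)
    exact ⟨y, y.2, fun h => hy (Subtype.ext h)⟩
  obtain ⟨⟨c, hcard, -, hc3⟩, hconj, hoddx⟩ := c3 x hxU hx1
  have hx3 : (x : G) ^ 3 = 1 := by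
    have := D.kd.Uexp x hxU
    exact_mod_cast congrArg Subtype.val this
  have hxt : (x : G) * t = t * x := (D.cent x).2 ⟨x, Or.inl rfl⟩
  -- the class of `t`
  set T : Finset G := Finset.univ.filter (fun v : G => v ≠ 1 ∧ v * v = 1) with hTdef
  have hTm : ∀ v : G, v ∈ T ↔ v ≠ 1 ∧ v * v = 1 := fun v => by simp [hTdef]
  have hT : ∀ v : G, v ∈ T ↔ ∃ z : G, z * t * z⁻¹ = v := by
    intro v
    rw [hTm]
    constructor
    · rintro ⟨hv1, hv2⟩
      obtain ⟨g, hg⟩ := D.inv v hv1 hv2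
      exact ⟨g⁻¹, by rw [← hg]; group⟩
    · rintro ⟨z, rfl⟩
      refine ⟨fun h => D.t1 ?_, ?_⟩
      · calc t = z⁻¹ * (z * t * z⁻¹) * z := by group
          _ = 1 := by rw [h]; group
      · calc z * t * z⁻¹ * (z * t * z⁻¹) = z * (t * t) * z⁻¹ := by group
          _ = 1 := by rw [D.t2]; group
  -- conjugation by `x`
  let φ : G → G := fun v => (x : G) * v * (x : G)⁻¹
  have hφ3 : ∀ v, φ (φ (φ v)) = v := by
    intro v
    show (x : G) * ((x : G) * ((x : G) * v * (x : G)⁻¹) * (x : G)⁻¹) * (x : G)⁻¹ = v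
    have hxxx : (x : G) * x * x = 1 := by rw [← hx3, pow_succ, pow_succ, pow_one]
    calc _ = ((x : G) * x * x) * v * ((x : G) * x * x)⁻¹ := by simp only [mul_inv_rev, mul_assoc]
      _ = v := by rw [hxxx, one_mul, inv_one, mul_one]
  have hφfix : ∀ v, φ v = v ↔ v * (x : G) = (x : G) * v := by
    intro v
    show (x : G) * v * (x : G)⁻¹ = v ↔ _
    rw [mul_inv_eq_iff_eq_mul]
    exact eq_comm
  -- splitting of sums over `T`
  have hsplit : ∀ f : G → ℂ, (∀ v, f (φ v) = f v) → (∀ v, IsIntegral ℤ (f v)) → ∃ w : ℂ, IsIntegral ℤ w ∧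
      ∑ v ∈ T, f v = 3 * w + ∑ v ∈ T.filter (fun v => v * (x : G) = (x : G) * v), f v := by
    intro f hf hint
    obtain ⟨w, hw, hs⟩ := orb3 φ hφ3 f hf hint _ (T.filter (fun v => ¬ v * (x : G) = (x : G) * v)) le_rfl (by
      intro v hv
      rw [Finset.mem_filter] at hv ⊢
      refine ⟨?_, ?_⟩
      · rw [hTm] at hv ⊢
        refine ⟨fun h => hv.1.1 ?_, ?_⟩
        · calc v = (x : G)⁻¹ * ((x : G) * v * (x : G)⁻¹) * (x : G) := by group
            _ = 1 := by rw [show (x : G) * v * (x : G)⁻¹ = 1 from h]; group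
        · show (x : G) * v * (x : G)⁻¹ * ((x : G) * v * (x : G)⁻¹) = 1
          calc _ = (x : G) * (v * v) * (x : G)⁻¹ := by group
            _ = 1 := by rw [hv.1.2]; group
      · intro h
        apply hv.2
        rw [← hφfix] at h ⊢
        have h2 := congrArg (fun z => φ (φ z)) h
        simp only [hφ3] at h2
        exact h2) (by
      intro v hv h
      rw [Finset.mem_filter] at hv
      exact hv.2 ((hφfix v).1 h))
    refine ⟨w, hw, ?_⟩
    rw [← hs, add_comm, Finset.sum_filter_add_sum_filter_not]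
  -- the number of involutions commuting with `x`
  set F : Finset G := T.filter (fun v => v * (x : G) = (x : G) * v) with hF
  have hFm : ∀ v, v ∈ F ↔ (v ≠ 1 ∧ v * v = 1) ∧ v * (x : G) = (x : G) * v := fun v => by
    rw [hF, Finset.mem_filter, hTm]
  have hFcard : F.card * (2 * q) = 2 * q * c := by
    set C : Subgroup G := Subgroup.centralizer ({(x : G)} : Set G) with hC
    have hCm : ∀ g : G, g ∈ C ↔ g * (x : G) = x * g := fun g => Subgroup.mem_centralizer_singleton_iff
    let t' : C := ⟨t, (hCm t).2 hxt.symm⟩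
    set T' : Finset C := Finset.univ.filter (fun v : C => (v : G) ∈ F) with hT'
    have hT'm : ∀ v : C, v ∈ T' ↔ ∃ z : C, z * t' * z⁻¹ = v := by
      intro v
      rw [hT', Finset.mem_filter, hFm]
      constructor
      · rintro ⟨-, ⟨hv1, hv2⟩, hvx⟩
        obtain ⟨g, hgx, hgv⟩ := hconj v hv1 hv2 hvx
        refine ⟨(⟨g, (hCm g).2 hgx⟩ : C)⁻¹, Subtype.ext ?_⟩
        show g⁻¹ * t * (g⁻¹)⁻¹ = v
        rw [← hgv]; group
      · rintro ⟨z, rfl⟩
        refine ⟨Finset.mem_univ _, ⟨fun h => D.t1 ?_, ?_⟩, (hCm _).1 (z * t' * z⁻¹).2⟩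
        · have h' : (z : G) * t * (z : G)⁻¹ = 1 := h
          calc t = (z : G)⁻¹ * ((z : G) * t * (z : G)⁻¹) * z := by group
            _ = 1 := by rw [h']; group
        · show (z : G) * t * (z : G)⁻¹ * ((z : G) * t * (z : G)⁻¹) = 1
          calc (z : G) * t * (z : G)⁻¹ * ((z : G) * t * (z : G)⁻¹) = (z : G) * (t * t) * (z : G)⁻¹ := by group
            _ = 1 := by rw [D.t2]; group
    have hTcard : T'.card = F.card := by
      apply Finset.card_bij (fun (v : C) _ => (v : G))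
      · intro v hv
        rw [hT', Finset.mem_filter] at hv
        exact hv.2
      · intro a _ b _ h
        exact Subtype.ext h
      · intro v hv
        have h2 := ((hFm v).1 hv).2
        exact ⟨⟨v, (hCm v).2 h2⟩, Finset.mem_filter.2 ⟨Finset.mem_univ _, hv⟩, rfl⟩
    have hcent : Nat.card (Subgroup.centralizer ({t'} : Set C)) = 2 * q := by
      have hxu : ∀ u : U, ((u : K) : G) * (x : G) = x * (u : K) := fun u => by
        have := D.kd.Ucomm u u.2 x hxU
        exact_mod_cast congrArg Subtype.val this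
      have hut : ∀ u : U, ((u : K) : G) * t = t * (u : K) := fun u => (D.cent _).2 ⟨u, Or.inl rfl⟩
      have htu : ∀ u : U, (t * ((u : K) : G)) * t = t * (t * (u : K)) := fun u => (D.cent _).2 ⟨u, Or.inr rfl⟩
      let f : U ⊕ U → Subgroup.centralizer ({t'} : Set C) := Sum.elim
        (fun u => ⟨⟨((u : K) : G), (hCm _).2 (hxu u)⟩, Subgroup.mem_centralizer_singleton_iff.2 (Subtype.ext (hut u))⟩)
        (fun u => ⟨⟨t * ((u : K) : G), (hCm _).2 (by rw [mul_assoc, hxu u, ← mul_assoc, ← hxt, mul_assoc])⟩,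
          Subgroup.mem_centralizer_singleton_iff.2 (Subtype.ext (htu u))⟩)
      have hf : Function.Bijective f := by
        constructor
        · rintro (u | u) (v | v) h
          · have h2 : ((u : K) : G) = ((v : K) : G) := congrArg (fun z : Subgroup.centralizer ({t'} : Set C) => ((z : C) : G)) h
            rw [Subtype.ext (Subtype.ext h2)]
          · exfalso
            have h2 : ((u : K) : G) = t * ((v : K) : G) := congrArg (fun z : Subgroup.centralizer ({t'} : Set C) => ((z : C) : G)) h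
            apply D.tK
            have h3 : t = ((u * v⁻¹ : K) : G) := by
              push_cast
              rw [h2]; group
            rw [h3]
            exact (u * v⁻¹ : K).2
          · exfalso
            have h2 : t * ((u : K) : G) = ((v : K) : G) := congrArg (fun z : Subgroup.centralizer ({t'} : Set C) => ((z : C) : G)) h
            apply D.tK
            have h3 : t = ((v * u⁻¹ : K) : G) := by
              push_cast
              rw [← h2]; group
            rw [h3]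
            exact (v * u⁻¹ : K).2
          · have h2 : t * ((u : K) : G) = t * ((v : K) : G) := congrArg (fun z : Subgroup.centralizer ({t'} : Set C) => ((z : C) : G)) h
            rw [Subtype.ext (Subtype.ext (mul_left_cancel h2))]
        · rintro ⟨⟨g, hg⟩, hg'⟩
          have hgx := (hCm g).1 hg
          have hgt : g * t = t * g := congrArg Subtype.val (Subgroup.mem_centralizer_singleton_iff.1 hg')
          obtain ⟨y, rfl | rfl⟩ := (D.cent g).1 hgt
          · have h2 : y * x = x * y := Subtype.ext hgx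
            exact ⟨Sum.inl ⟨y, D.kd.Ucent x hxU hx1 y h2⟩, rfl⟩
          · have h2 : y * x = x * y := by
              apply Subtype.ext
              show (y : G) * x = x * y
              apply mul_left_cancel (a := t)
              rw [← mul_assoc, hgx, ← mul_assoc, hxt, mul_assoc]
            exact ⟨Sum.inr ⟨y, D.kd.Ucent x hxU hx1 y h2⟩, rfl⟩
      rw [← Nat.card_congr (Equiv.ofBijective f hf), Nat.card_sum, D.kd.cardU]
      ring
    have h2 := card_class hT'm
    have h3 := (Subgroup.centralizer ({t'} : Set C)).card_mul_index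
    rw [h2, hcent, hTcard, hcard] at h3
    rw [← h3]; ring
  have hFc : F.card = c := by
    apply Nat.eq_of_mul_eq_mul_left (show 0 < 2 * q by omega)
    rw [mul_comm, hFcard]
  have hint : ∀ j (g : G), IsIntegral ℤ ((χ j : G → ℂ) g) := fun j g => irr_isIntegral (χ j) g
  have hcl : ∀ j (g h : G), (χ j : G → ℂ) (h * g * h⁻¹) = (χ j : G → ℂ) g := fun j g h =>
    isClassFunction_of_isCharacter (isCharacter_of_isIrr (χ j).2) g h
  -- congruence A
  have hA : ∃ w : ℂ, IsIntegral ℤ w ∧ ((T.card : ℂ) * (χ 1 : G → ℂ) t / (χ 1 : G → ℂ) 1) * (χ 1 : G → ℂ) x =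
      3 * w + (c : ℂ) * ε := by
    obtain ⟨w, hw, hs⟩ := hsplit (fun v => (χ 1 : G → ℂ) ((x : G) * v)) (by
      intro v
      show (χ 1 : G → ℂ) ((x : G) * ((x : G) * v * (x : G)⁻¹)) = _
      rw [← hcl 1 ((x : G) * v) (x : G)]
      group) (fun v => hint 1 _)
    refine ⟨w, hw, ?_⟩
    rw [← omega_mul hT (χ 1).2, hs]
    congr 1
    have h2 : ∀ v ∈ F, (χ 1 : G → ℂ) ((x : G) * v) = ε := by
      intro v hv
      obtain ⟨⟨hv1, hv2⟩, hvx⟩ := (hFm v).1 hv
      obtain ⟨g, hgx, hgv⟩ := hconj v hv1 hv2 hvx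
      rw [← hcl 1 ((x : G) * v) g]
      have h3 : g * ((x : G) * v) * g⁻¹ = t * (x : G) := by
        calc g * ((x : G) * v) * g⁻¹ = (g * (x : G)) * v * g⁻¹ := by group
          _ = (x : G) * (g * v * g⁻¹) := by rw [hgx]; group
          _ = (x : G) * t := by rw [hgv]
          _ = _ := hxt
      rw [h3, htx 1 x hxU hx1, h1]
      push_cast; ring
    rw [Finset.sum_congr rfl h2, Finset.sum_const, nsmul_eq_mul, hFc]
  -- congruence B
  have hB : ∃ Z : ℂ, ∀ j : Fin 4, (j = 0 ∨ j = 1) → ∃ w : ℂ, IsIntegral ℤ w ∧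
      ((T.card : ℂ) * (χ j : G → ℂ) t / (χ j : G → ℂ) 1) * (-(σ j : ℂ)) = 3 * w + Z := by
    refine ⟨∑ v ∈ F, (χ 0 : G → ℂ) (t * (x : G) * v), fun j _ => ?_⟩
    obtain ⟨w, hw, hs⟩ := hsplit (fun v => (χ j : G → ℂ) (t * (x : G) * v)) (by
      intro v
      show (χ j : G → ℂ) (t * (x : G) * ((x : G) * v * (x : G)⁻¹)) = _
      rw [← hcl j (t * (x : G) * v) (x : G)]
      refine congrArg (χ j : G → ℂ) ?_
      calc t * (x : G) * ((x : G) * v * (x : G)⁻¹) = (t * (x : G)) * (x : G) * v * (x : G)⁻¹ := by group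
        _ = (x : G) * t * (x : G) * v * (x : G)⁻¹ := by rw [hxt]
        _ = _ := by group) (fun v => hint j _)
    refine ⟨w, hw, ?_⟩
    rw [← htx j x hxU hx1, ← omega_mul hT (χ j).2, hs]
    congr 1
    apply Finset.sum_congr rfl
    intro v hv
    obtain ⟨⟨hv1, hv2⟩, hvx⟩ := (hFm v).1 hv
    have h2 := (hoddx v hv1 hv2 hvx).2
    have h3 : ∀ i, (χ i : G → ℂ) (t * (x : G) * v) = (χ i : G → ℂ) (v * t * (x : G)) := by
      intro i
      rw [← hcl i (t * (x : G) * v) v]
      refine congrArg (χ i : G → ℂ) ?_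
      calc v * (t * (x : G) * v) * v⁻¹ = v * t * (x : G) * (v * v⁻¹) := by group
        _ = _ := by group
    rw [h3, h3]
    exact hodd _ h2 j 0
  -- conclusion
  have hone : (χ 0 : G → ℂ) 1 = (χ 1 : G → ℂ) 1 := hodd 1 (by rw [orderOf_one]; exact odd_one) 0 1
  set Ω : ℂ := (T.card : ℂ) * ((q : ℂ) - 1) / (χ 1 : G → ℂ) 1 with hΩ
  have hw0 : (T.card : ℂ) * (χ 0 : G → ℂ) t / (χ 0 : G → ℂ) 1 = Ω * (3 * ε) := by
    rw [hone, ht 0, h0, hΩ]; push_cast; ring
  have hw1 : (T.card : ℂ) * (χ 1 : G → ℂ) t / (χ 1 : G → ℂ) 1 = Ω * (-ε) := by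
    rw [ht 1, h1, hΩ]; push_cast; ring
  have hε2 : (ε : ℂ) * ε = 1 := by rcases hε with rfl | rfl <;> norm_num
  have hεint : IsIntegral ℤ (ε : ℂ) := isIntegral_algebraMap (R := ℤ) (x := ε)
  have hΩint : IsIntegral ℤ Ω := by
    have h2 := omega_int hT (χ 1).2
    rw [hw1] at h2
    have h3 : Ω = (Ω * (-ε)) * (-ε) := by
      calc Ω = Ω * (ε * ε) := by rw [hε2, mul_one]
        _ = _ := by ring
    rw [h3]
    exact h2.mul hεint.neg
  obtain ⟨wA, hwA, hAe⟩ := hA
  obtain ⟨Z, hB⟩ := hB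
  obtain ⟨w0, hw0i, hB0⟩ := hB 0 (Or.inl rfl)
  obtain ⟨w1, hw1i, hB1⟩ := hB 1 (Or.inr rfl)
  rw [hw0, h0] at hB0
  rw [hw1, h1] at hB1
  rw [hw1] at hAe
  push_cast at hB0 hB1
  have e0 : -9 * Ω = 3 * w0 + Z := by
    rw [← hB0]
    calc -9 * Ω = -9 * Ω * (ε * ε) := by rw [hε2, mul_one]
      _ = _ := by ring
  have e1 : -Ω = 3 * w1 + Z := by
    rw [← hB1]
    calc -Ω = -Ω * (ε * ε) := by rw [hε2, mul_one]
      _ = _ := by ring
  have e2 : Ω = 3 * (3 * Ω + w0 - w1) := by linear_combination e0 - e1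
  have e3 : (c : ℂ) = 3 * (-(3 * Ω + w0 - w1) * (χ 1 : G → ℂ) x - ε * wA) := by
    have e4 : (c : ℂ) * ε * ε = (Ω * (-ε) * (χ 1 : G → ℂ) x - 3 * wA) * ε := by
      rw [hAe]; ring
    have e5 : (c : ℂ) * ε * ε = c := by rw [mul_assoc, hε2, mul_one]
    rw [e5] at e4
    rw [e4]
    have e6 : (Ω * (-ε) * (χ 1 : G → ℂ) x - 3 * wA) * ε = -Ω * (ε * ε) * (χ 1 : G → ℂ) x - 3 * wA * ε := by ring
    rw [e6, hε2]
    linear_combination (-(χ 1 : G → ℂ) x) * e2
  have three_int : IsIntegral ℤ (3 : ℂ) := by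
    have := isIntegral_algebraMap (R := ℤ) (A := ℂ) (x := 3)
    simpa using this
  have e7 : IsIntegral ℤ ((c : ℂ) / ((3 : ℕ) : ℂ)) := by
    have e8 : (c : ℂ) / ((3 : ℕ) : ℂ) = -(3 * Ω + w0 - w1) * (χ 1 : G → ℂ) x - ε * wA := by
      rw [e3]; push_cast; ring
    rw [e8]
    exact ((((three_int.mul hΩint).add hw0i).sub hw1i).neg.mul (hint 1 _)).sub (hεint.mul hwA)
  exact hc3 (Cfsg.Agent.Char.dvd_of_isIntegral_div (by norm_num) e7)

end Cfsg.Agent.H93.RtE6
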