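import Mathlib
import Cfsg.Prelude.Def_Sporadic_a
import Cfsg.Agent.H93.Steiner

set_option autoImplicit false

/-!
Abstract extended binary Golay codes: self-orthogonal binary codes of dimension 12, length 24 and minimum weight ≥ 8,
on an arbitrary 24-element coordinate type.
-/

namespace Cfsg.Agent.H93

set_option linter.unusedSectionVars false

variable {α : Type*} [Fintype α] [DecidableEq α]

/-- support of a binary word -/
def sp (v : α → ZMod 2) : Finset α := Finset.univ.filter fun i => v i ≠ 0

theorem mem_sp (v : α → ZMod 2) (i : α) : i ∈ sp v ↔ v i ≠ 0 := by simp [sp]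

theorem card_sp (v : α → ZMod 2) : (sp v).card = hammingNorm v := rfl

/-- indicator word of a set -/
def ind (s : Finset α) : α → ZMod 2 := fun i => if i ∈ s then 1 else 0

theorem sp_ind (s : Finset α) : sp (ind s) = s := by
  ext i; simp [mem_sp, ind]

theorem zmod2_ne_zero (a : ZMod 2) : a ≠ 0 ↔ a = 1 := by revert a; decide

theorem ind_sp (v : α → ZMod 2) : ind (sp v) = v := by
  funext i
  simp only [ind, mem_sp]
  split_ifs with h
  · exact ((zmod2_ne_zero _).1 h).symm
  · push Not at h; exact h.symm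

theorem sp_injective : Function.Injective (sp : (α → ZMod 2) → Finset α) := by
  intro u v h
  rw [← ind_sp u, ← ind_sp v, h]

theorem sp_add (u v : α → ZMod 2) : sp (u + v) = symmDiff (sp u) (sp v) := by
  ext i
  rw [Finset.mem_symmDiff, mem_sp, mem_sp, mem_sp, Pi.add_apply]
  have : ∀ a b : ZMod 2, a + b ≠ 0 ↔ (a ≠ 0 ∧ ¬ b ≠ 0) ∨ (b ≠ 0 ∧ ¬ a ≠ 0) := by decide
  exact this _ _

theorem add_eq_sub (u v : α → ZMod 2) : u + v = u - v := by
  funext i
  have : ∀ a b : ZMod 2, a + b = a - b := by decide
  exact this _ _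

theorem sp_sub (u v : α → ZMod 2) : sp (u - v) = symmDiff (sp u) (sp v) := by
  rw [← add_eq_sub, sp_add]

theorem card_symmDiff (s t : Finset α) : (symmDiff s t).card + 2 * (s ∩ t).card = s.card + t.card := by
  have h1 : (symmDiff s t).card = (s \ t).card + (t \ s).card := by
    rw [symmDiff_def, Finset.sup_eq_union, Finset.card_union_of_disjoint]
    exact disjoint_sdiff_sdiff
  have h2 := Finset.card_sdiff_add_card_inter s t
  have h3 := Finset.card_sdiff_add_card_inter t s
  rw [Finset.inter_comm] at h3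
  omega

theorem wt_add (u v : α → ZMod 2) : hammingNorm (u + v) + 2 * (sp u ∩ sp v).card = hammingNorm u + hammingNorm v := by
  rw [← card_sp, ← card_sp, ← card_sp, sp_add, card_symmDiff]

theorem wt_sub (u v : α → ZMod 2) : hammingNorm (u - v) + 2 * (sp u ∩ sp v).card = hammingNorm u + hammingNorm v := by
  rw [← add_eq_sub, wt_add]

theorem dot_eq (u v : α → ZMod 2) : ∑ i, u i * v i = ((sp u ∩ sp v).card : ZMod 2) := by
  have h : ∀ i, u i * v i = if i ∈ sp u ∩ sp v then 1 else 0 := by
    intro i
    have : ∀ a b : ZMod 2, a * b = if a ≠ 0 ∧ b ≠ 0 then 1 else 0 := by decide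
    rw [this]
    simp only [Finset.mem_inter, mem_sp]
  rw [Finset.sum_congr rfl (fun i _ => h i), Finset.sum_boole]
  congr 2
  ext i
  simp

theorem card_wt_eq (k : ℕ) :
    (Finset.univ.filter fun v : α → ZMod 2 => hammingNorm v = k).card = (Fintype.card α).choose k := by
  rw [← Finset.card_univ, ← Finset.card_powersetCard k (Finset.univ : Finset α)]
  refine Finset.card_bij (fun v _ => sp v) ?_ ?_ ?_
  · intro v hv
    simp only [Finset.mem_filter, Finset.mem_univ, true_and] at hv
    rw [Finset.mem_powersetCard]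
    exact ⟨Finset.subset_univ _, by rw [card_sp, hv]⟩
  · intro u _ v _ h
    exact sp_injective h
  · intro s hs
    rw [Finset.mem_powersetCard] at hs
    refine ⟨ind s, ?_, sp_ind s⟩
    simp only [Finset.mem_filter, Finset.mem_univ, true_and]
    rw [← card_sp, sp_ind, hs.2]

/-- hypothesis block: an abstract extended binary Golay code -/
structure IsAG (C : Submodule (ZMod 2) (α → ZMod 2)) : Prop where
  card : Fintype.card α = 24
  dim : Module.finrank (ZMod 2) C = 12
  orth : ∀ v ∈ C, ∀ w ∈ C, ∑ i, v i * w i = 0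
  min : ∀ w ∈ C, w ≠ 0 → 8 ≤ hammingNorm w

variable {C : Submodule (ZMod 2) (α → ZMod 2)}

theorem IsAG.even_inter (h : IsAG C) {u v : α → ZMod 2} (hu : u ∈ C) (hv : v ∈ C) : Even (sp u ∩ sp v).card := by
  have := h.orth u hu v hv
  rw [dot_eq] at this
  exact (ZMod.natCast_eq_zero_iff_even).1 this

theorem IsAG.even_wt (h : IsAG C) {u : α → ZMod 2} (hu : u ∈ C) : Even (hammingNorm u) := by
  have := h.even_inter hu hu
  rwa [Finset.inter_self, card_sp] at this

/-- small difference forces equality -/
theorem IsAG.eq_of_small (h : IsAG C) {u v : α → ZMod 2} (huv : u - v ∈ C) (hw : hammingNorm u + hammingNorm v < 8) :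
    u = v := by
  by_contra hne
  have h1 := h.min _ huv (sub_ne_zero.2 hne)
  have h2 := wt_sub u v
  omega

/-- weight four vectors in the same coset have disjoint supports -/
theorem IsAG.disjoint_of_four (h : IsAG C) {u v : α → ZMod 2} (huv : u - v ∈ C) (hu : hammingNorm u = 4)
    (hv : hammingNorm v = 4) (hne : u ≠ v) : Disjoint (sp u) (sp v) := by
  have h1 := h.min _ huv (sub_ne_zero.2 hne)
  have h2 := wt_sub u v
  rw [Finset.disjoint_iff_inter_eq_empty, ← Finset.card_eq_zero]
  omega

theorem IsAG.card_quot (h : IsAG C) : Nat.card ((α → ZMod 2) ⧸ C) = 4096 := by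
  have h1 := Submodule.finrank_quotient_add_finrank C
  rw [h.dim, Module.finrank_fintype_fun_eq_card, h.card] at h1
  have h2 : Module.finrank (ZMod 2) ((α → ZMod 2) ⧸ C) = 12 := by omega
  have h3 := Module.card_eq_pow_finrank (K := ZMod 2) (V := (α → ZMod 2) ⧸ C)
  rw [Nat.card_eq_fintype_card, h3, h2, ZMod.card]
  norm_num

open Classical in
/-- The key count: a coset of `C` without words of weight at most 3 has exactly six words of weight 4. -/
theorem IsAG.six (h : IsAG C) (w : α → ZMod 2) (hw : ∀ u : α → ZMod 2, u - w ∈ C → 4 ≤ hammingNorm u) :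
    (Finset.univ.filter fun u : α → ZMod 2 => u - w ∈ C ∧ hammingNorm u = 4).card = 6 := by
  let mk : (α → ZMod 2) → ((α → ZMod 2) ⧸ C) := Submodule.Quotient.mk
  have hmk : ∀ u v, mk u = mk v ↔ u - v ∈ C := fun u v => Submodule.Quotient.eq C
  let W3 : Finset (α → ZMod 2) := Finset.univ.filter fun u => hammingNorm u ≤ 3
  let W4 : Finset (α → ZMod 2) := Finset.univ.filter fun u => hammingNorm u = 4
  have hW4 : W4.card = 10626 := by
    rw [card_wt_eq, h.card]; rfl
  have hW3 : W3.card = 2325 := by
    have : W3 = (((Finset.univ.filter fun v : α → ZMod 2 => hammingNorm v = 0) ∪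
        (Finset.univ.filter fun v : α → ZMod 2 => hammingNorm v = 1)) ∪
        (Finset.univ.filter fun v : α → ZMod 2 => hammingNorm v = 2)) ∪
        (Finset.univ.filter fun v : α → ZMod 2 => hammingNorm v = 3) := by
      ext v
      simp only [W3, Finset.mem_filter, Finset.mem_univ, true_and, Finset.mem_union]
      omega
    rw [this, Finset.card_union_of_disjoint, Finset.card_union_of_disjoint, Finset.card_union_of_disjoint,
      card_wt_eq, card_wt_eq, card_wt_eq, card_wt_eq, h.card]
    · rfl
    · rw [Finset.disjoint_left]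
      intro v hv hv'
      simp only [Finset.mem_filter, Finset.mem_univ, true_and, Finset.mem_union] at hv hv'
      omega
    · rw [Finset.disjoint_left]
      intro v hv hv'
      simp only [Finset.mem_filter, Finset.mem_univ, true_and, Finset.mem_union] at hv hv'
      omega
    · rw [Finset.disjoint_left]
      intro v hv hv'
      simp only [Finset.mem_filter, Finset.mem_univ, true_and, Finset.mem_union] at hv hv'
      omega
  let A : Finset ((α → ZMod 2) ⧸ C) := W3.image mk
  have hA : A.card = 2325 := by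
    rw [← hW3]
    apply Finset.card_image_of_injOn
    intro u hu v hv huv
    simp only [W3, Finset.coe_filter, Finset.mem_univ, true_and, Set.mem_ofPred_eq] at hu hv
    exact h.eq_of_small ((hmk u v).1 huv) (by omega)
  have hB : (Finset.univ \ A).card = 1771 := by
    rw [Finset.card_sdiff_of_subset (Finset.subset_univ A), hA, Finset.card_univ, ← Nat.card_eq_fintype_card, h.card_quot]
  have hmaps : ∀ u ∈ W4, mk u ∈ Finset.univ \ A := by
    intro u hu
    simp only [W4, Finset.mem_filter, Finset.mem_univ, true_and] at hu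
    rw [Finset.mem_sdiff]
    refine ⟨Finset.mem_univ _, fun hmem => ?_⟩
    obtain ⟨v, hv, hvu⟩ := Finset.mem_image.1 hmem
    simp only [W3, Finset.mem_filter, Finset.mem_univ, true_and] at hv
    have := h.eq_of_small ((hmk v u).1 hvu) (by omega)
    rw [this] at hv
    omega
  have hsum := Finset.card_eq_sum_card_fiberwise hmaps
  have hle : ∀ q ∈ Finset.univ \ A, (W4.filter fun u => mk u = q).card ≤ 6 := by
    intro q _
    have hdis : ((W4.filter fun u => mk u = q) : Set (α → ZMod 2)).PairwiseDisjoint sp := by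
      intro u hu v hv hne
      simp only [W4, Finset.coe_filter, Finset.mem_filter, Finset.mem_univ, true_and, Set.mem_ofPred_eq] at hu hv
      exact h.disjoint_of_four ((hmk u v).1 (hu.2.trans hv.2.symm)) hu.1 hv.1 hne
    have h1 := Finset.card_biUnion hdis
    have h2 : ∀ u ∈ (W4.filter fun u => mk u = q), (sp u).card = 4 := by
      intro u hu
      simp only [W4, Finset.mem_filter, Finset.mem_univ, true_and] at hu
      rw [card_sp, hu.1]
    rw [Finset.sum_congr rfl h2, Finset.sum_const, smul_eq_mul] at h1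
    have h3 : ((W4.filter fun u => mk u = q).biUnion sp).card ≤ 24 := by
      rw [← h.card, ← Finset.card_univ]
      exact Finset.card_le_card (Finset.subset_univ _)
    omega
  have hwB : mk w ∈ Finset.univ \ A := by
    rw [Finset.mem_sdiff]
    refine ⟨Finset.mem_univ _, fun hmem => ?_⟩
    obtain ⟨v, hv, hvu⟩ := Finset.mem_image.1 hmem
    simp only [W3, Finset.mem_filter, Finset.mem_univ, true_and] at hv
    have := hw v ((hmk v w).1 hvu)
    omega
  have heq : ∀ q ∈ Finset.univ \ A, (W4.filter fun u => mk u = q).card = 6 := by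
    have hs : ∑ q ∈ Finset.univ \ A, (W4.filter fun u => mk u = q).card = ∑ q ∈ Finset.univ \ A, 6 := by
      rw [← hsum, hW4, Finset.sum_const, hB]
      rfl
    exact (Finset.sum_eq_sum_iff_of_le hle).1 hs
  have := heq _ hwB
  rw [← this]
  congr 1
  ext u
  simp only [W4, Finset.mem_filter, Finset.mem_univ, true_and, hmk]
  tauto

open Classical in
/-- every coset has a word of weight at most 4 -/
theorem IsAG.exists_le_four (h : IsAG C) (w : α → ZMod 2) : ∃ u : α → ZMod 2, u - w ∈ C ∧ hammingNorm u ≤ 4 := by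
  by_contra hcon
  push Not at hcon
  have h6 := h.six w (fun u hu => (hcon u hu).le)
  have : (Finset.univ.filter fun u : α → ZMod 2 => u - w ∈ C ∧ hammingNorm u = 4).Nonempty := by
    rw [← Finset.card_pos, h6]; norm_num
  obtain ⟨u, hu⟩ := this
  simp only [Finset.mem_filter, Finset.mem_univ, true_and] at hu
  have := hcon u hu.1
  omega

/-- every 5-set lies in the support of a word of weight 8 -/
theorem IsAG.exists_octad (h : IsAG C) (s : Finset α) (hs : s.card = 5) :
    ∃ c ∈ C, hammingNorm c = 8 ∧ s ⊆ sp c := by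
  obtain ⟨u, hu, hu4⟩ := h.exists_le_four (ind s)
  have hs5 : hammingNorm (ind s) = 5 := by rw [← card_sp, sp_ind, hs]
  have hne : u - ind s ≠ 0 := by
    intro h0
    rw [sub_eq_zero] at h0
    rw [h0, hs5] at hu4
    omega
  have h8 := h.min _ hu hne
  have hev := h.even_wt hu
  have hwt := wt_sub u (ind s)
  rw [hs5] at hwt
  rw [Nat.even_iff] at hev
  have hcard : hammingNorm (u - ind s) = 8 := by omega
  have hint : (sp u ∩ sp (ind s)).card = 0 := by omega
  refine ⟨u - ind s, hu, hcard, ?_⟩
  rw [sp_sub, sp_ind]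
  rw [Finset.card_eq_zero, sp_ind] at hint
  intro x hx
  rw [Finset.mem_symmDiff]
  right
  refine ⟨hx, fun hxu => ?_⟩
  have : x ∈ sp u ∩ s := Finset.mem_inter.2 ⟨hxu, hx⟩
  rw [hint] at this
  exact absurd this (Finset.notMem_empty _)

theorem IsAG.octad_unique (h : IsAG C) {c d : α → ZMod 2} (hc : c ∈ C) (hd : d ∈ C) (hc8 : hammingNorm c = 8)
    (hd8 : hammingNorm d = 8) (hcd : 5 ≤ (sp c ∩ sp d).card) : c = d := by
  by_contra hne
  have h1 := h.min _ (C.sub_mem hc hd) (sub_ne_zero.2 hne)
  have h2 := wt_sub c d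
  omega

theorem IsAG.exists_reduce (h : IsAG C) {c : α → ZMod 2} (hc : c ∈ C) (hc0 : c ≠ 0) :
    ∃ d ∈ C, hammingNorm d = 8 ∧ hammingNorm (c + d) + 4 ≤ hammingNorm c := by
  have h8 := h.min c hc hc0
  obtain ⟨s, hs, hs5⟩ := Finset.exists_subset_card_eq (n := 5) (s := sp c) (by rw [card_sp]; omega)
  obtain ⟨d, hd, hd8, hsd⟩ := h.exists_octad s hs5
  refine ⟨d, hd, hd8, ?_⟩
  have h1 := wt_add c d
  have h2 := h.even_inter hc hd
  have h3 : 5 ≤ (sp c ∩ sp d).card := by
    rw [← hs5]
    exact Finset.card_le_card (Finset.subset_inter hs hsd)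
  rw [Nat.even_iff] at h2
  omega

/-- the code is spanned by its weight-8 words -/
theorem IsAG.span_octads (h : IsAG C) :
    Submodule.span (ZMod 2) {w : α → ZMod 2 | w ∈ C ∧ hammingNorm w = 8} = C := by
  apply le_antisymm
  · rw [Submodule.span_le]
    intro w hw
    exact hw.1
  · intro c hc
    induction' hn : hammingNorm c using Nat.strong_induction_on with n ih generalizing c
    by_cases hc0 : c = 0
    · subst hc0; exact Submodule.zero_mem _
    · obtain ⟨d, hd, hd8, hlt⟩ := h.exists_reduce hc hc0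
      have h1 := ih (hammingNorm (c + d)) (by omega) (C.add_mem hc hd) rfl
      have h2 : d ∈ Submodule.span (ZMod 2) {w : α → ZMod 2 | w ∈ C ∧ hammingNorm w = 8} :=
        Submodule.subset_span ⟨hd, hd8⟩
      have h3 := Submodule.sub_mem _ h1 h2
      simpa using h3

theorem IsAG.no_ten (h : IsAG C) {c : α → ZMod 2} (hc : c ∈ C) : hammingNorm c ≠ 10 := by
  intro h10
  have hc0 : c ≠ 0 := by
    rintro rfl
    simp at h10
  obtain ⟨d, hd, hd8, hlt⟩ := h.exists_reduce hc hc0
  have hcd : c + d = 0 := by
    by_contra hne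
    have := h.min _ (C.add_mem hc hd) hne
    omega
  have h1 := wt_add c d
  have : c = d := by
    have := hcd
    rw [add_eq_sub, sub_eq_zero] at this
    exact this
  rw [this, hd8] at h10
  omega

/-- the code is doubly even -/
theorem IsAG.doubly_even (h : IsAG C) {c : α → ZMod 2} (hc : c ∈ C) : 4 ∣ hammingNorm c := by
  rw [← h.span_octads] at hc
  have key : ∀ x ∈ Submodule.span (ZMod 2) {w : α → ZMod 2 | w ∈ C ∧ hammingNorm w = 8}, x ∈ C ∧ 4 ∣ hammingNorm x := by
    intro x hx
    induction hx using Submodule.span_induction with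
    | mem x hx => exact ⟨hx.1, by rw [hx.2]; norm_num⟩
    | zero => exact ⟨C.zero_mem, by simp⟩
    | add x y _ _ hx hy =>
      refine ⟨C.add_mem hx.1 hy.1, ?_⟩
      have h1 := wt_add x y
      have h2 := h.even_inter hx.1 hy.1
      rw [Nat.even_iff] at h2
      obtain ⟨a, ha⟩ := hx.2
      obtain ⟨b, hb⟩ := hy.2
      omega
    | smul a x _ hx =>
      refine ⟨C.smul_mem _ hx.1, ?_⟩
      have : a = 0 ∨ a = 1 := by revert a; decide
      rcases this with rfl | rfl
      · simp
      · rw [one_smul]; exact hx.2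
  exact (key c hc).2

/-- the supports of the weight-8 words form a Steiner system S(5,8,24) -/
theorem IsAG.steiner (h : IsAG C) : Cfsg.IsSteinerSystem 5 8 (Cfsg.wordsOfWeight (C : Set (α → ZMod 2)) 8) := by
  constructor
  · rintro b ⟨_, hb⟩
    exact hb
  · intro s hs
    obtain ⟨c, hc, hc8, hsc⟩ := h.exists_octad s hs
    refine ⟨sp c, ⟨⟨⟨c, hc, rfl⟩, hc8⟩, hsc⟩, ?_⟩
    rintro b ⟨⟨⟨d, hd, rfl⟩, hd8⟩, hsd⟩
    have : (sp c ∩ Cfsg.support₂ d).card ≥ 5 := by
      rw [← hs]
      exact Finset.card_le_card (Finset.subset_inter hsc hsd)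
    rw [h.octad_unique hc hd hc8 hd8 this]
    rfl

end Cfsg.Agent.H93
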